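import Mathlib

set_option autoImplicit false
set_option linter.style.haveILetI false

/-!
An elementary abelian 2-group with a transitive commuting group of automorphisms is a field.
-/

namespace CfsgLib.SuzukiTwo

/-- A commutative group transitive on the nontrivial elements of an elementary abelian 2-group makes it a field. -/
theorem exists_field_action {V K : Type*} [CommGroup V] [Finite V] [Group K] (hKc : ∀ k h : K, k * h = h * k)
    (φ : K →* MulAut V) (htrans : ∀ v w : V, v ≠ 1 → w ≠ 1 → ∃ k, φ k v = w) (v0 : V) (hv0 : v0 ≠ 1)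
    (hexp : ∀ v : V, v ^ 2 = 1) :
    ∃ (n : ℕ) (ι : V → GaloisField 2 n) (ρ : K → GaloisField 2 n),
      Function.Bijective ι ∧ (∀ a b, ι (a * b) = ι a + ι b) ∧ (∀ k v, ι (φ k v) = ρ k * ι v) ∧
      (∀ x : GaloisField 2 n, x ≠ 0 → ∃ k, ρ k = x) ∧ n ≠ 0 ∧ Nat.card V = 2 ^ n := by
  classical
  haveI : Fact (Nat.Prime 2) := ⟨Nat.prime_two⟩
  let T : K → AddMonoid.End (Additive V) := fun k => MonoidHom.toAdditive (φ k : MulAut V).toMonoidHom
  have hTmul : ∀ k h : K, T (k * h) = T k * T h := fun k h => DFunLike.ext _ _ fun a => by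
    show φ (k * h) (Additive.toMul a) = φ k (φ h (Additive.toMul a))
    rw [map_mul]; rfl
  have hTone : T 1 = 1 := DFunLike.ext _ _ fun a => by
    show φ 1 (Additive.toMul a) = Additive.toMul a
    rw [map_one]; rfl
  have hcomm : ∀ a ∈ Set.range T, ∀ b ∈ Set.range T, a * b = b * a := by
    rintro _ ⟨k, rfl⟩ _ ⟨h, rfl⟩
    rw [← hTmul, ← hTmul, hKc]
  let S := Subring.closure (Set.range T)
  letI : CommRing S := Subring.closureCommRingOfComm hcomm
  let a0 : Additive V := Additive.ofMul v0
  have hTmem : ∀ k : K, T k ∈ S := fun k => Subring.subset_closure ⟨k, rfl⟩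
  have horb : ∀ a : Additive V, a ≠ 0 → ∃ k : K, T k a0 = a := by
    intro a ha
    obtain ⟨k, hk⟩ := htrans v0 (Additive.toMul a) hv0 (fun h => ha (Additive.toMul.injective h))
    exact ⟨k, Additive.toMul.injective hk⟩
  let ev : S →+ Additive V :=
    { toFun := fun s => (s : AddMonoid.End (Additive V)) a0
      map_zero' := rfl
      map_add' := fun _ _ => rfl }
  have hev_inj : Function.Injective ev := by
    intro s t hst
    apply Subtype.ext
    apply DFunLike.ext
    intro a
    rcases eq_or_ne a 0 with rfl | ha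
    · rw [map_zero, map_zero]
    obtain ⟨k, hk⟩ := horb a ha
    have hs : ∀ r : S, (r : AddMonoid.End (Additive V)) a = T k (ev r) := fun r => by
      rw [← hk]
      have h := congrArg Subtype.val (mul_comm r (⟨T k, hTmem k⟩ : S))
      exact DFunLike.congr_fun h a0
    rw [hs, hs, hst]
  have hev_surj : Function.Surjective ev := by
    intro a
    rcases eq_or_ne a 0 with rfl | ha
    · exact ⟨0, map_zero ev⟩
    obtain ⟨k, hk⟩ := horb a ha
    exact ⟨⟨T k, hTmem k⟩, hk⟩
  have hfield : IsField S := by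
    refine ⟨⟨0, 1, fun h => ?_⟩, mul_comm, fun {s} hs => ?_⟩
    · have h1 := congrArg ev h
      rw [map_zero] at h1
      exact hv0 (congrArg Additive.toMul h1.symm)
    · obtain ⟨k, hk⟩ := horb (ev s) (fun h => hs (hev_inj (by rw [h, map_zero])))
      refine ⟨⟨T k⁻¹, hTmem _⟩, ?_⟩
      rw [show s = ⟨T k, hTmem k⟩ from hev_inj hk.symm]
      exact Subtype.ext ((hTmul k k⁻¹).symm.trans (by rw [mul_inv_cancel, hTone]; rfl))
  letI : Field S := hfield.toField
  haveI : Finite S := Finite.of_injective ev hev_inj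
  letI : Fintype S := Fintype.ofFinite S
  have hcard : Nat.card S = Nat.card V :=
    (Nat.card_congr (Equiv.ofBijective ev ⟨hev_inj, hev_surj⟩)).trans (Nat.card_congr Additive.toMul)
  have hV : IsPGroup 2 V := fun v => ⟨1, by rw [pow_one]; exact hexp v⟩
  obtain ⟨n, hn⟩ := IsPGroup.iff_card.mp hV
  have hn0 : n ≠ 0 := by
    rintro rfl
    haveI : Subsingleton V := (Nat.card_eq_one_iff_unique.mp (by simpa using hn)).1
    exact hv0 (Subsingleton.elim _ _)
  letI : Fintype (GaloisField 2 n) := Fintype.ofFinite _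
  have hG : Fintype.card S = Fintype.card (GaloisField 2 n) := by
    rw [← Nat.card_eq_fintype_card, ← Nat.card_eq_fintype_card, hcard, hn, GaloisField.card 2 n hn0]
  let e : S ≃+* GaloisField 2 n := FiniteField.ringEquivOfCardEq hG
  let E : Additive V ≃+ GaloisField 2 n := (AddEquiv.ofBijective ev ⟨hev_inj, hev_surj⟩).symm.trans e.toAddEquiv
  refine ⟨n, fun v => E (Additive.ofMul v), fun k => e ⟨T k, hTmem k⟩,
    E.bijective.comp Additive.ofMul.bijective, fun a b => ?_, fun k v => ?_, fun x hx => ?_, hn0, hn⟩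
  · show E (Additive.ofMul (a * b)) = _
    rw [ofMul_mul, map_add]
  · show e _ = e _ * e _
    rw [← map_mul]
    congr 1
    apply hev_inj
    show ev ((AddEquiv.ofBijective ev ⟨hev_inj, hev_surj⟩).symm (Additive.ofMul (φ k v)))
      = T k (ev ((AddEquiv.ofBijective ev ⟨hev_inj, hev_surj⟩).symm (Additive.ofMul v)))
    rw [show ∀ a, ev ((AddEquiv.ofBijective ev ⟨hev_inj, hev_surj⟩).symm a) = a from
      fun a => (AddEquiv.ofBijective ev ⟨hev_inj, hev_surj⟩).apply_symm_apply a,
      show ev ((AddEquiv.ofBijective ev ⟨hev_inj, hev_surj⟩).symm (Additive.ofMul v)) = Additive.ofMul v from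
        (AddEquiv.ofBijective ev ⟨hev_inj, hev_surj⟩).apply_symm_apply _]
    rfl
  · have hs : e.symm x ≠ 0 := fun h => hx (e.symm.injective (h.trans (map_zero e.symm).symm))
    obtain ⟨k, hk⟩ := horb (ev (e.symm x)) (fun h => hs (hev_inj (by rw [h, map_zero])))
    refine ⟨k, ?_⟩
    show e ⟨T k, hTmem k⟩ = x
    rw [show (⟨T k, hTmem k⟩ : S) = e.symm x from hev_inj hk, e.apply_symm_apply]

end CfsgLib.SuzukiTwo
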