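import Mathlib
import Cfsg.Prelude.Def_LieRecognition

set_option autoImplicit false
set_option linter.style.haveILetI false

/-!
The groups of type A: normal form, projection and kernel.
-/

namespace CfsgLib.SuzukiTwo

variable {F : Type*} [Field F] (φ : F →+* F)

/-- The matrix with parameters `x, y`. -/
def typeAMat (x y : F) : Matrix (Fin 3) (Fin 3) F := !![1, 0, 0; x, 1, 0; y, φ x, 1]

theorem typeAMat_mul (x y x' y' : F) :
    typeAMat φ x y * typeAMat φ x' y' = typeAMat φ (x + x') (y + y' + φ x * x') := by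
  ext i j
  fin_cases i <;> fin_cases j <;> simp [typeAMat, Matrix.mul_apply, Fin.sum_univ_three] <;> ring

theorem typeAMat_zero : typeAMat φ 0 0 = 1 := by
  ext i j
  fin_cases i <;> fin_cases j <;> simp [typeAMat, Matrix.one_apply]

/-- The invertible matrix with parameters `x, y`. -/
def typeAUnit (x y : F) : GL (Fin 3) F where
  val := typeAMat φ x y
  inv := typeAMat φ (-x) (φ x * x - y)
  val_inv := by rw [typeAMat_mul, ← typeAMat_zero φ]; congr 1 <;> ring
  inv_val := by rw [typeAMat_mul, ← typeAMat_zero φ, map_neg]; congr 1 <;> ring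

theorem typeAUnit_mul (x y x' y' : F) :
    typeAUnit φ x y * typeAUnit φ x' y' = typeAUnit φ (x + x') (y + y' + φ x * x') :=
  Units.ext (typeAMat_mul φ x y x' y')

theorem typeAUnit_mem (x y : F) : typeAUnit φ x y ∈ Cfsg.suzukiTypeA F φ :=
  Subgroup.subset_closure ⟨x, y, rfl⟩

theorem exists_typeAUnit {g : GL (Fin 3) F} (hg : g ∈ Cfsg.suzukiTypeA F φ) :
    ∃ x y, g = typeAUnit φ x y := by
  induction hg using Subgroup.closure_induction with
  | mem g hg =>
    obtain ⟨x, y, h⟩ := hg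
    exact ⟨x, y, Units.ext h⟩
  | one => exact ⟨0, 0, Units.ext (typeAMat_zero φ).symm⟩
  | mul g h _ _ ihg ihh =>
    obtain ⟨x, y, rfl⟩ := ihg
    obtain ⟨x', y', rfl⟩ := ihh
    exact ⟨_, _, typeAUnit_mul φ x y x' y'⟩
  | inv g _ ih =>
    obtain ⟨x, y, rfl⟩ := ih
    exact ⟨-x, φ x * x - y, Units.ext rfl⟩

theorem typeAUnit_apply_one_zero (x y : F) : (typeAUnit φ x y : Matrix (Fin 3) (Fin 3) F) 1 0 = x := by
  simp [typeAUnit, typeAMat]

theorem typeAUnit_apply_two_zero (x y : F) : (typeAUnit φ x y : Matrix (Fin 3) (Fin 3) F) 2 0 = y := by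
  simp [typeAUnit, typeAMat]

/-- The projection to the first parameter. -/
def typeAProj : Cfsg.suzukiTypeA F φ →* Multiplicative F where
  toFun g := Multiplicative.ofAdd (((g : GL (Fin 3) F) : Matrix (Fin 3) (Fin 3) F) 1 0)
  map_one' := by simp
  map_mul' g h := by
    obtain ⟨x, y, hg⟩ := exists_typeAUnit φ g.2
    obtain ⟨x', y', hh⟩ := exists_typeAUnit φ h.2
    rw [Subgroup.coe_mul, hg, hh, typeAUnit_mul, typeAUnit_apply_one_zero, typeAUnit_apply_one_zero,
      typeAUnit_apply_one_zero, ofAdd_add]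

theorem typeAProj_mk (x y : F) :
    typeAProj φ ⟨typeAUnit φ x y, typeAUnit_mem φ x y⟩ = Multiplicative.ofAdd x :=
  congrArg Multiplicative.ofAdd (typeAUnit_apply_one_zero φ x y)

theorem typeAProj_surjective : Function.Surjective (typeAProj φ) := fun v =>
  ⟨⟨typeAUnit φ v.toAdd 0, typeAUnit_mem φ _ _⟩, typeAProj_mk φ _ _⟩

theorem exists_mk (g : Cfsg.suzukiTypeA F φ) :
    ∃ x y, g = ⟨typeAUnit φ x y, typeAUnit_mem φ x y⟩ ∧ typeAProj φ g = Multiplicative.ofAdd x := by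
  obtain ⟨x, y, h⟩ := exists_typeAUnit φ g.2
  exact ⟨x, y, Subtype.ext h, by rw [show g = ⟨typeAUnit φ x y, typeAUnit_mem φ x y⟩ from Subtype.ext h, typeAProj_mk]⟩

theorem typeAProj_ker_le_center : (typeAProj φ).ker ≤ Subgroup.center (Cfsg.suzukiTypeA F φ) := by
  intro g hg
  rw [Subgroup.mem_center_iff]
  intro h
  obtain ⟨x, y, rfl, hp⟩ := exists_mk φ g
  obtain ⟨x', y', rfl, -⟩ := exists_mk φ h
  rw [MonoidHom.mem_ker, hp, ofAdd_eq_one] at hg
  subst hg
  apply Subtype.ext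
  show typeAUnit φ x' y' * typeAUnit φ 0 y = typeAUnit φ 0 y * typeAUnit φ x' y'
  rw [typeAUnit_mul, typeAUnit_mul, map_zero]
  congr 1 <;> ring

theorem finite_typeA [Finite F] : Finite (Cfsg.suzukiTypeA F φ) :=
  Finite.of_surjective (fun p : F × F => (⟨typeAUnit φ p.1 p.2, typeAUnit_mem φ _ _⟩ : Cfsg.suzukiTypeA F φ))
    fun g => by
      obtain ⟨x, y, h, -⟩ := exists_mk φ g
      exact ⟨(x, y), h.symm⟩

/-- The kernel of the projection is the additive group of the field. -/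
def typeAKer : Multiplicative F ≃* (typeAProj φ).ker where
  toFun v := ⟨⟨typeAUnit φ 0 v.toAdd, typeAUnit_mem φ _ _⟩, by rw [MonoidHom.mem_ker, typeAProj_mk, ofAdd_zero]⟩
  invFun g := Multiplicative.ofAdd ((((g : Cfsg.suzukiTypeA F φ) : GL (Fin 3) F) : Matrix (Fin 3) (Fin 3) F) 2 0)
  left_inv v := by
    show Multiplicative.ofAdd ((typeAUnit φ 0 v.toAdd : Matrix (Fin 3) (Fin 3) F) 2 0) = v
    rw [typeAUnit_apply_two_zero, ofAdd_toAdd]
  right_inv g := by
    obtain ⟨x, y, hg, hp⟩ := exists_mk φ g.1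
    have hx := MonoidHom.mem_ker.mp g.2
    rw [hp, ofAdd_eq_one] at hx
    subst hx
    apply Subtype.ext
    apply Subtype.ext
    show typeAUnit φ 0 _ = _
    rw [toAdd_ofAdd, hg, typeAUnit_apply_two_zero]
  map_mul' v w := by
    apply Subtype.ext
    apply Subtype.ext
    show typeAUnit φ 0 _ = typeAUnit φ 0 _ * typeAUnit φ 0 _
    rw [typeAUnit_mul, map_zero, toAdd_mul]
    congr 1 <;> ring

theorem typeAKer_apply (v : Multiplicative F) :
    ((typeAKer φ v : (typeAProj φ).ker) : Cfsg.suzukiTypeA F φ) = ⟨typeAUnit φ 0 v.toAdd, typeAUnit_mem φ _ _⟩ := rfl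

theorem sq_mk [CharP F 2] (x y : F) :
    (⟨typeAUnit φ x y, typeAUnit_mem φ x y⟩ : Cfsg.suzukiTypeA F φ) ^ 2
      = ⟨typeAUnit φ 0 (φ x * x), typeAUnit_mem φ _ _⟩ := by
  apply Subtype.ext
  rw [SubmonoidClass.coe_pow]
  show typeAUnit φ x y ^ 2 = typeAUnit φ 0 (φ x * x)
  rw [pow_two, typeAUnit_mul, CharTwo.add_self_eq_zero, CharTwo.add_self_eq_zero, zero_add]

end CfsgLib.SuzukiTwo
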