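import Cfsg.Agent.SuzukiTwo.Order
import Cfsg.Agent.SuzukiTwo.FieldAction
import Cfsg.Agent.SuzukiTwo.SquareMapIso
import Cfsg.Agent.SuzukiTwo.TypeAGroup

set_option autoImplicit false
set_option linter.style.haveILetI false
set_option linter.unusedSectionVars false

/-!
A Suzuki 2-group of order `q ^ 2` is of type A.
-/

open scoped commutatorElement

namespace CfsgLib.SuzukiTwo

/-- A bijective multiplicative map with biadditive nonzero polar is a product of two Frobenius powers. -/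
theorem exists_exponents {F : Type*} [Field F] [Fintype F] [CharP F 2] {n : ℕ}
    (hn : Fintype.card F = 2 ^ n) (Q : F → F) (hmul : ∀ x y, Q (x * y) = Q x * Q y)
    (hl : ∀ x x' y, Q (x + x' + y) + Q (x + x') + Q y = (Q (x + y) + Q x + Q y) + (Q (x' + y) + Q x' + Q y))
    (hne : ∃ x y, Q (x + y) + Q x + Q y ≠ 0) :
    ∃ i j : ℕ, i < n ∧ j < n ∧ ∀ x, Q x = x ^ (2 ^ i + 2 ^ j) := by
  classical
  let B : F → F → F := fun x y => Q (x + y) + Q x + Q y
  have hsymm : ∀ x y, B x y = B y x := fun x y => by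
    show Q (x + y) + Q x + Q y = Q (y + x) + Q y + Q x
    rw [add_comm x y]; ring
  have hBl : ∀ x x' y, B (x + x') y = B x y + B x' y := hl
  have hBr : ∀ x y y', B x (y + y') = B x y + B x y' := fun x y y' => by rw [hsymm, hBl, hsymm y, hsymm y']
  have hscale : ∀ lam x y, B (lam * x) (lam * y) = Q lam * B x y := by
    intro lam x y
    show Q (lam * x + lam * y) + Q (lam * x) + Q (lam * y) = Q lam * (Q (x + y) + Q x + Q y)
    rw [← mul_add, hmul, hmul, hmul]; ring
  choose c hc using fun y => exists_coeff hn (AddMonoidHom.mk' (fun x => B x y) fun a b => hBl a b y)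
  have hc' : ∀ y x, B x y = ∑ i : Fin n, c y i * x ^ 2 ^ (i : ℕ) := hc
  have hcadd : ∀ y y' i, c (y + y') i = c y i + c y' i := by
    intro y y' i
    have := congrFun (coeff_eq_zero hn (fun i => c (y + y') i - (c y i + c y' i)) fun x => by
      simp only [sub_mul, add_mul, Finset.sum_sub_distrib, Finset.sum_add_distrib, ← hc', hBr, sub_self]) i
    exact sub_eq_zero.mp this
  choose d hd using fun i => exists_coeff hn (AddMonoidHom.mk' (fun y => c y i) fun a b => hcadd a b i)
  have hd' : ∀ i y, c y i = ∑ j : Fin n, d i j * y ^ 2 ^ (j : ℕ) := hd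
  have hex : ∃ i j, d i j ≠ 0 := by
    by_contra hall
    simp only [not_exists, not_not] at hall
    obtain ⟨x, y, hxy⟩ := hne
    apply hxy
    show B x y = 0
    rw [hc']
    exact Finset.sum_eq_zero fun i _ => by
      rw [hd', Finset.sum_eq_zero fun j _ => by rw [hall, zero_mul], zero_mul]
  obtain ⟨i, j, hij⟩ := hex
  refine ⟨i, j, i.2, j.2, fun lam => ?_⟩
  have hrow : ∀ y (a : Fin n), c (lam * y) a * lam ^ 2 ^ (a : ℕ) - Q lam * c y a = 0 := by
    intro y a
    exact congrFun (coeff_eq_zero hn (fun a => c (lam * y) a * lam ^ 2 ^ (a : ℕ) - Q lam * c y a) fun x => by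
      simp only [sub_mul, Finset.sum_sub_distrib]
      rw [sub_eq_zero]
      calc ∑ a : Fin n, c (lam * y) a * lam ^ 2 ^ (a : ℕ) * x ^ 2 ^ (a : ℕ)
          = B (lam * x) (lam * y) := by
            rw [hc']; exact Finset.sum_congr rfl fun a _ => by rw [mul_pow]; ring
        _ = ∑ a : Fin n, Q lam * c y a * x ^ 2 ^ (a : ℕ) := by
            rw [hscale, hc', Finset.mul_sum]; exact Finset.sum_congr rfl fun a _ => by ring) a
  have hcol := congrFun (coeff_eq_zero hn (fun b => d i b * (lam ^ 2 ^ (i : ℕ) * lam ^ 2 ^ (b : ℕ) - Q lam)) fun y => by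
    have h := hrow y i
    rw [hd', hd', Finset.sum_mul, Finset.mul_sum, ← Finset.sum_sub_distrib] at h
    rw [← h]
    exact Finset.sum_congr rfl fun b _ => by rw [mul_pow]; ring) j
  have h2 := (mul_eq_zero.mp hcol).resolve_left hij
  rw [pow_add]
  exact (sub_eq_zero.mp h2).symm

namespace SData

variable {P : Type*} [Group P]

/-- Higman: a Suzuki 2-group of order `q ^ 2` is of type A. -/
theorem exists_typeA (D : SData P) (hcard : Nat.card P = Nat.card (Subgroup.center P) ^ 2) :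
    ∃ (F : Type) (_ : Field F) (_ : Fintype F) (φ : F ≃+* F), Fintype.card F = Nat.card (Subgroup.center P) ∧
      φ ≠ RingEquiv.refl F ∧ Odd (orderOf φ) ∧ Nonempty (P ≃* Cfsg.suzukiTypeA F (φ : F →+* F)) := by
  classical
  haveI := D.fin
  haveI : Fact (Nat.Prime 2) := ⟨Nat.prime_two⟩
  obtain ⟨M⟩ := D.exists_model
  let Z := Subgroup.center P
  let V := P ⧸ Z
  have hι1 : M.ι 1 = 0 := by
    have h := M.ι_mul 1 1 (one_pow 2) (one_pow 2)
    rw [one_mul] at h
    exact add_left_cancel (h.symm.trans (add_zero _).symm)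
  have hcardZ : Nat.card Z = 2 ^ M.n := by
    rw [← GaloisField.card 2 M.n (by have := M.two_le; omega)]
    exact Nat.card_congr (Equiv.ofBijective (fun z : Z => M.ι z)
      ⟨fun z z' h => Subtype.ext (M.ι_inj _ _ (D.center_sq z.2) (D.center_sq z'.2) h), fun x => by
        obtain ⟨u, hu, hux⟩ := M.ι_surj x
        exact ⟨⟨u, D.mem_center_of_sq hu⟩, hux⟩⟩)
  letI : CommGroup V :=
    { (inferInstance : Group V) with
      mul_comm := fun a b => by
        obtain ⟨g, rfl⟩ := QuotientGroup.mk'_surjective Z a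
        obtain ⟨h, rfl⟩ := QuotientGroup.mk'_surjective Z b
        rw [← commutatorElement_eq_one_iff_mul_comm, ← map_commutatorElement, QuotientGroup.mk'_apply,
          QuotientGroup.eq_one_iff]
        exact D.commutator_mem_center g h }
  have hVexp : ∀ v : V, v ^ 2 = 1 := fun v => by
    obtain ⟨g, rfl⟩ := QuotientGroup.mk'_surjective Z v
    rw [← map_pow, QuotientGroup.mk'_apply, QuotientGroup.eq_one_iff]
    exact D.sq_mem_center g
  have hVcard : Nat.card V = 2 ^ M.n := by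
    have h := Subgroup.card_eq_card_quotient_mul_card_subgroup Z
    rw [hcard, show Nat.card (Subgroup.center P) = Nat.card Z from rfl, hcardZ, pow_two] at h
    exact (Nat.eq_of_mul_eq_mul_right (by positivity) h).symm
  let act : D.K →* MulAut V :=
    { toFun := fun k => QuotientGroup.congr Z Z (k : MulAut P)
        (le_antisymm (by rintro _ ⟨z, hz, rfl⟩; exact D.inv_center _ k.2 z hz)
          (fun z hz => ⟨(k : MulAut P).symm z, D.inv_center _ (inv_mem k.2) z hz,
            (k : MulAut P).apply_symm_apply z⟩))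
      map_one' := by
        ext v
        obtain ⟨g, rfl⟩ := QuotientGroup.mk'_surjective Z v
        rfl
      map_mul' := fun k h => by
        ext v
        obtain ⟨g, rfl⟩ := QuotientGroup.mk'_surjective Z v
        rfl }
  have hact : ∀ k (g : P), act k (QuotientGroup.mk' Z g) = QuotientGroup.mk' Z ((k : MulAut P) g) := fun _ _ => rfl
  have hfree : ∀ (k : D.K) (v : V), v ≠ 1 → act k v = v → k = 1 := by
    intro k v hv hk
    obtain ⟨g, rfl⟩ := QuotientGroup.mk'_surjective Z v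
    rw [hact] at hk
    by_contra hk1
    exact hv ((QuotientGroup.eq_one_iff g).mpr
      (D.fpf D.inv_center k.2 (fun e => hk1 (Subtype.ext e)) (QuotientGroup.eq.mp hk.symm)))
  have htrans : ∀ v w : V, v ≠ 1 → w ≠ 1 → ∃ k, act k v = w := by
    intro v w hv hw
    let o : D.K → {x : V // x ≠ 1} := fun k => ⟨act k v, fun h => hv (by simpa using h)⟩
    have hinj : Function.Injective o := by
      intro k h e
      have e' : act k v = act h v := congrArg Subtype.val e
      have := hfree (h⁻¹ * k) v hv (by rw [map_mul, MulAut.mul_apply, e', ← MulAut.mul_apply, ← map_mul]; simp)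
      exact (inv_mul_eq_one.mp this).symm
    have hcardeq : Nat.card D.K = Nat.card {x : V // x ≠ 1} := by
      haveI : Fintype V := Fintype.ofFinite V
      rw [Nat.card_eq_fintype_card (α := {x : V // x ≠ 1}), Fintype.card_subtype_compl, Fintype.card_subtype_eq,
        ← Nat.card_eq_fintype_card, hVcard]
      have h := D.card_omega
      rw [D.omega_eq_center, show Nat.card (Subgroup.center P) = Nat.card Z from rfl, hcardZ] at h
      omega
    obtain ⟨k, hk⟩ := ((Nat.bijective_iff_injective_and_card o).mpr ⟨hinj, hcardeq⟩).2 ⟨w, hw⟩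
    exact ⟨k, congrArg Subtype.val hk⟩
  obtain ⟨x0, y0, hxy0⟩ := D.nonabelian
  have hy0 : QuotientGroup.mk' Z y0 ≠ 1 := fun h =>
    hxy0 (Subgroup.mem_center_iff.mp ((QuotientGroup.eq_one_iff y0).mp h) x0)
  obtain ⟨n', ιV, ρV, hιVb, hιVmul, hιVmap, hρV, -, hn'⟩ :=
    exists_field_action (K := D.K) (fun k h => Subtype.ext (D.comm k k.2 h h.2)) act htrans _ hy0 hVexp
  obtain rfl : n' = M.n := Nat.pow_right_injective le_rfl (hn'.symm.trans hVcard)
  letI : Fintype (GaloisField 2 M.n) := Fintype.ofFinite _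
  have hcardF : Fintype.card (GaloisField 2 M.n) = 2 ^ M.n := by
    rw [← Nat.card_eq_fintype_card, GaloisField.card 2 M.n (by have := M.two_le; omega)]
  have hιV1 : ιV 1 = 0 := by
    have h := hιVmul 1 1
    rw [one_mul] at h
    exact add_left_cancel (h.symm.trans (add_zero _).symm)
  let π : P → GaloisField 2 M.n := fun g => ιV (QuotientGroup.mk' Z g)
  have hπmul : ∀ g h, π (g * h) = π g + π h := fun g h => by
    show ιV _ = ιV _ + ιV _
    rw [map_mul, hιVmul]
  have hπ0 : ∀ g, π g = 0 ↔ g ∈ Z := fun g =>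
    ⟨fun h => (QuotientGroup.eq_one_iff g).mp (hιVb.1 (h.trans hιV1.symm)),
      fun h => (congrArg ιV ((QuotientGroup.eq_one_iff g).mpr h)).trans hιV1⟩
  have hπs : Function.Surjective π := hιVb.2.comp (QuotientGroup.mk'_surjective Z)
  choose s hs using hπs
  let sm : P → GaloisField 2 M.n := fun g => M.ι (g ^ 2)
  have hg2 : ∀ g : P, (g ^ 2) ^ 2 = 1 := fun g => D.center_sq (D.sq_mem_center g)
  have hc2 : ∀ g h : P, ⁅g, h⁆ ^ 2 = 1 := fun g h => D.center_sq (D.commutator_mem_center g h)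
  have hsm : ∀ g h : P, sm (g * h) = sm g + sm h + M.ι ⁅g⁻¹, h⁆ := by
    intro g h
    show M.ι ((g * h) ^ 2) = M.ι (g ^ 2) + M.ι (h ^ 2) + M.ι ⁅g⁻¹, h⁆
    rw [show (g * h) ^ 2 = g ^ 2 * ⁅g⁻¹, h⁆ * h ^ 2 by simp only [commutatorElement_def, pow_two]; group,
      M.ι_mul _ _ (D.omega.mul_mem (hg2 g) (hc2 _ _)) (hg2 h), M.ι_mul _ _ (hg2 g) (hc2 _ _)]
    ring
  have hsmZ : ∀ g z : P, z ∈ Z → sm (g * z) = sm g := by
    intro g z hz
    show M.ι ((g * z) ^ 2) = M.ι (g ^ 2)
    rw [Commute.mul_pow (Subgroup.mem_center_iff.mp hz g), D.center_sq hz, mul_one]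
  let Q : GaloisField 2 M.n → GaloisField 2 M.n := fun x => sm (s x)
  have hQπ : ∀ g, Q (π g) = sm g := by
    intro g
    have hz : g⁻¹ * s (π g) ∈ Z := QuotientGroup.eq.mp (hιVb.1 (hs (π g))).symm
    have := hsmZ g _ hz
    rwa [mul_inv_cancel_left] at this
  have hQ0 : ∀ x, Q x = 0 → x = 0 := by
    intro x hx
    rw [← hs x, hπ0]
    exact D.mem_center_of_sq (M.ι_inj _ _ (hg2 _) (one_pow 2) (hx.trans hι1.symm))
  have hQK : ∀ (k : D.K) x, Q (ρV k * x) = M.ρ (k : MulAut P) * Q x := by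
    intro k x
    rw [show ρV k * x = π ((k : MulAut P) (s x)) by
      conv_lhs => rw [← hs x]
      exact (hιVmap k _).symm.trans (congrArg ιV (hact k _)), hQπ]
    show M.ι (((k : MulAut P) (s x)) ^ 2) = M.ρ (k : MulAut P) * M.ι (s x ^ 2)
    rw [← map_pow, M.ι_map _ k.2 _ (hg2 _)]
  have hQzero : Q 0 = 0 := by
    have h := hQπ 1
    rw [(hπ0 1).mpr (one_mem Z)] at h
    rw [h]
    show M.ι (1 ^ 2) = 0
    rw [one_pow, hι1]
  have hQ1 : Q 1 ≠ 0 := fun h => one_ne_zero (hQ0 1 h)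
  let Qn : GaloisField 2 M.n → GaloisField 2 M.n := fun x => Q x / Q 1
  have hQnmul : ∀ x y, Qn (x * y) = Qn x * Qn y := by
    intro x y
    rcases eq_or_ne x 0 with rfl | hx
    · show Q (0 * y) / Q 1 = Q 0 / Q 1 * (Q y / Q 1)
      rw [zero_mul, hQzero, zero_div, zero_mul]
    obtain ⟨k, rfl⟩ := hρV x hx
    show Q (ρV k * y) / Q 1 = Q (ρV k) / Q 1 * (Q y / Q 1)
    have h1 := hQK k 1
    rw [mul_one] at h1
    rw [hQK, h1]
    field_simp
  have hB : ∀ g h : P, Qn (π g + π h) + Qn (π g) + Qn (π h) = M.ι ⁅g⁻¹, h⁆ / Q 1 := by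
    intro g h
    show Q (π g + π h) / Q 1 + Q (π g) / Q 1 + Q (π h) / Q 1 = _
    rw [← hπmul, hQπ, hQπ, hQπ, hsm, ← add_div, ← add_div]
    congr 1
    linear_combination CharTwo.add_self_eq_zero (sm g) + CharTwo.add_self_eq_zero (sm h)
  have hl : ∀ x x' y, Qn (x + x' + y) + Qn (x + x') + Qn y
      = (Qn (x + y) + Qn x + Qn y) + (Qn (x' + y) + Qn x' + Qn y) := by
    intro x x' y
    rw [← hs x, ← hs x', ← hs y, hB, hB, ← hπmul, hB, ← add_div, ← M.ι_mul _ _ (hc2 _ _) (hc2 _ _)]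
    congr 2
    rw [mul_inv_rev, show ⁅(s x')⁻¹ * (s x)⁻¹, s y⁆ = (s x')⁻¹ * ⁅(s x)⁻¹, s y⁆ * (s x')⁻¹⁻¹ * ⁅(s x')⁻¹, s y⁆ by
        simp only [commutatorElement_def]; group,
      Subgroup.mem_center_iff.mp (D.commutator_mem_center _ (s y)) ((s x')⁻¹), mul_inv_cancel_right]
  have hne : ∃ x y, Qn (x + y) + Qn x + Qn y ≠ 0 := by
    refine ⟨π x0⁻¹, π y0, fun h => ?_⟩
    rw [hB, inv_inv, div_eq_zero_iff] at h
    exact hxy0 (commutatorElement_eq_one_iff_mul_comm.mp
      (M.ι_inj _ _ (hc2 _ _) (one_pow 2) ((h.resolve_right hQ1).trans hι1.symm)))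
  obtain ⟨i, j, hi, hj, hQe⟩ := exists_exponents hcardF Qn hQnmul hl hne
  let d := (M.n - i + j) % M.n
  let θ : GaloisField 2 M.n ≃+* GaloisField 2 M.n := iterateFrobeniusEquiv (GaloisField 2 M.n) 2 d
  have hθ : ∀ x, θ x = x ^ 2 ^ d := fun x => iterateFrobeniusEquiv_def _ _ _ x
  have hQθ : ∀ x, Qn x = (x * θ x) ^ 2 ^ i := by
    intro x
    rw [hQe, hθ, mul_pow, ← pow_mul, ← pow_add, ← pow_add, pow_add, pow_add x (2 ^ i),
      pow_two_pow_mod hcardF x (d + i)]
    congr 2
    rw [show (d + i) % M.n = j from by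
      show ((M.n - i + j) % M.n + i) % M.n = j
      rw [Nat.mod_add_mod, show M.n - i + j + i = j + M.n by omega, Nat.add_mod_right, Nat.mod_eq_of_lt hj]]
  have hθne : θ ≠ RingEquiv.refl _ := by
    intro h
    obtain ⟨x, y, hxy⟩ := hne
    apply hxy
    have hθx : ∀ z, θ z = z := fun z => by rw [h]; rfl
    rw [hQθ, hQθ, hQθ, hθx, hθx, hθx, ← pow_two, ← pow_two, ← pow_two, CharTwo.add_sq, add_pow_char_pow]
    linear_combination CharTwo.add_self_eq_zero ((x ^ 2) ^ 2 ^ i) + CharTwo.add_self_eq_zero ((y ^ 2) ^ 2 ^ i)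
  have hinj1 : ∀ x : GaloisField 2 M.n, x * θ x = 1 → x = 1 := by
    intro x hx
    have hx0 : x ≠ 0 := fun h => by rw [h, zero_mul] at hx; exact zero_ne_one hx
    obtain ⟨k, rfl⟩ := hρV x hx0
    have h1 : Q (ρV k) = Q 1 := by
      have := hQθ (ρV k)
      rw [hx, one_pow] at this
      exact (div_eq_one_iff_eq hQ1).mp this
    have h2 := hQK k 1
    rw [mul_one, h1] at h2
    have hρ : M.ρ (k : MulAut P) = 1 := by
      exact (mul_eq_right₀ hQ1).mp h2.symm
    obtain ⟨u, hu, hu2⟩ := D.exists_involution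
    have hk1 : k = 1 := Subtype.ext (D.eq_one_of_fixed k.2 hu
      (M.ι_inj _ _ (D.inv_omega _ k.2 u hu2) hu2 (by rw [M.ι_map _ k.2 u hu2, hρ, one_mul])))
    have h3 := hιVmap k (QuotientGroup.mk' Z y0)
    rw [hk1, map_one, MulAut.one_apply] at h3
    rw [hk1]
    exact (mul_eq_right₀ (fun e => hy0 (hιVb.1 (e.trans hιV1.symm)))).mp h3.symm
  have hθodd : Odd (orderOf θ) := by
    let g := Nat.gcd M.n d
    have hgpos : 0 < g := Nat.gcd_pos_of_pos_left d (by have := M.two_le; omega)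
    obtain ⟨r, hr⟩ : g ∣ M.n := Nat.gcd_dvd_left _ _
    obtain ⟨d', hd'⟩ : g ∣ d := Nat.gcd_dvd_right _ _
    have hpow : ∀ m x, (θ ^ m) x = x ^ 2 ^ (d * m) := by
      intro m
      induction m with
      | zero => intro x; simp
      | succ m ih =>
        intro x
        rw [pow_succ, RingAut.mul_apply, ih, hθ, ← pow_mul, ← pow_add, Nat.mul_succ, add_comm d]
    have hθr : θ ^ r = 1 := by
      refine RingEquiv.ext fun x => ?_
      rw [hpow, pow_two_pow_mod hcardF, show d * r = M.n * d' by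
          conv_lhs => rw [hd']
          conv_rhs => rw [hr]
          ring, Nat.mul_mod_right, pow_zero, pow_one]
      rfl
    refine Odd.of_dvd_nat ?_ (orderOf_dvd_of_pow_eq_one hθr)
    by_contra hrodd
    rw [Nat.not_odd_iff_even] at hrodd
    have hdodd : Odd d' := by
      by_contra hde
      rw [Nat.not_odd_iff_even] at hde
      obtain ⟨r', hr'⟩ := hrodd
      obtain ⟨e', he'⟩ := hde
      have h2g : g * 2 ∣ g := Nat.dvd_gcd ⟨r', by rw [hr, hr']; ring⟩ ⟨e', by rw [hd', he']; ring⟩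
      have := Nat.le_of_dvd hgpos h2g
      omega
    have hd1 : 2 ^ g + 1 ∣ 2 ^ d + 1 := by
      have := hdodd.nat_add_dvd_pow_add_pow (2 ^ g) 1
      rwa [one_pow, ← pow_mul, ← hd'] at this
    have hd2 : 2 ^ g + 1 ∣ 2 ^ M.n - 1 := by
      obtain ⟨r', hr'⟩ := hrodd
      refine dvd_trans ⟨2 ^ g - 1, ?_⟩ (Nat.pow_sub_one_dvd_pow_sub_one 2 (show g * 2 ∣ M.n from ⟨r', by rw [hr, hr']; ring⟩))
      rw [pow_mul, ← Nat.sq_sub_sq, one_pow]
    obtain ⟨q, hq, hqd⟩ := Nat.exists_prime_and_dvd (show 2 ^ g + 1 ≠ 1 by have := Nat.one_le_two_pow (n := g); omega)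
    haveI : Fact q.Prime := ⟨hq⟩
    have hqU : q ∣ Nat.card (GaloisField 2 M.n)ˣ := by
      rw [Nat.card_units, GaloisField.card 2 M.n (by have := M.two_le; omega)]
      exact hqd.trans hd2
    obtain ⟨x, hx⟩ := exists_prime_orderOf_dvd_card' q hqU
    have hx1 : x ^ (2 ^ d + 1) = 1 := orderOf_dvd_iff_pow_eq_one.mp (hx ▸ hqd.trans hd1)
    have := hinj1 (x : GaloisField 2 M.n) (by
      rw [hθ, ← pow_succ', ← Units.val_pow_eq_pow_val, hx1, Units.val_one])
    have hx' : x = 1 := Units.ext this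
    rw [hx', orderOf_one] at hx
    exact hq.ne_one hx.symm
  let φr : GaloisField 2 M.n →+* GaloisField 2 M.n := (θ : GaloisField 2 M.n →+* GaloisField 2 M.n)
  refine ⟨GaloisField 2 M.n, inferInstance, inferInstance, θ, ?_, hθne, hθodd, ?_⟩
  · rw [hcardF]; exact hcardZ.symm
  haveI := finite_typeA φr
  let πP : P →* Multiplicative (GaloisField 2 M.n) :=
    MonoidHom.mk' (fun g => Multiplicative.ofAdd (π g)) fun g h => by
      show Multiplicative.ofAdd (π (g * h)) = Multiplicative.ofAdd (π g) * Multiplicative.ofAdd (π h)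
      rw [← ofAdd_add, hπmul]
  have hkerP : ∀ g, g ∈ πP.ker ↔ g ∈ Z := fun g => by
    rw [MonoidHom.mem_ker]
    show Multiplicative.ofAdd (π g) = 1 ↔ _
    rw [ofAdd_eq_one, hπ0]
  let root : GaloisField 2 M.n ≃+* GaloisField 2 M.n := (iterateFrobeniusEquiv (GaloisField 2 M.n) 2 i).symm
  let e0 : πP.ker →* Multiplicative (GaloisField 2 M.n) :=
    MonoidHom.mk' (fun z => Multiplicative.ofAdd (root (M.ι (z : P) / Q 1))) fun z w => by
      rw [← ofAdd_add, ← map_add, ← add_div,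
        ← M.ι_mul _ _ (D.center_sq ((hkerP _).mp z.2)) (D.center_sq ((hkerP _).mp w.2))]
      rfl
  have he0 : Function.Bijective e0 := by
    constructor
    · intro z w h
      have h' := root.injective (Multiplicative.ofAdd.injective h)
      exact Subtype.ext (M.ι_inj _ _ (D.center_sq ((hkerP _).mp z.2)) (D.center_sq ((hkerP _).mp w.2))
        ((div_left_inj' hQ1).mp h'))
    · intro v
      obtain ⟨u, hu, hux⟩ := M.ι_surj (root.symm v.toAdd * Q 1)
      refine ⟨⟨u, (hkerP u).mpr (D.mem_center_of_sq hu)⟩, ?_⟩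
      show Multiplicative.ofAdd (root (M.ι u / Q 1)) = v
      rw [hux, mul_div_cancel_right₀ _ hQ1, root.apply_symm_apply, ofAdd_toAdd]
  refine iso_of_square πP (typeAProj φr) ?_ (typeAProj_surjective φr) (fun g hg => (hkerP g).mp hg)
    (typeAProj_ker_le_center φr) ((MulEquiv.ofBijective e0 he0).trans (typeAKer φr)) ?_ ?_ ?_
  · exact fun v => ⟨s v.toAdd, by show Multiplicative.ofAdd (π (s v.toAdd)) = v; rw [hs, ofAdd_toAdd]⟩
  · exact fun z => Subtype.ext (D.center_sq ((hkerP _).mp z.2))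
  · intro v
    apply Multiplicative.toAdd.injective
    rw [toAdd_pow, toAdd_one, two_nsmul, CharTwo.add_self_eq_zero]
  · intro g a hg hga
    obtain ⟨x, y, rfl, hp⟩ := exists_mk φr a
    rw [hp] at hga
    have hπg : π g = x := Multiplicative.ofAdd.injective hga
    rw [MulEquiv.trans_apply, typeAKer_apply, sq_mk]
    apply Subtype.ext
    show typeAUnit φr 0 _ = typeAUnit φr 0 _
    congr 1
    show root (M.ι (g ^ 2) / Q 1) = θ x * x
    rw [mul_comm, RingEquiv.symm_apply_eq, iterateFrobeniusEquiv_def, ← hQθ, ← hπg]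
    exact congrArg (· / Q 1) (hQπ g).symm

end SData

end CfsgLib.SuzukiTwo
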